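import Cfsg.Agent.H125.Hall.Defs
import Cfsg.Agent.H762.FineTools
import Cfsg.Agent.H203.LSG2
import Cfsg.Agent.H203.LSTwD4
import Cfsg.Agent.H203.LSSz
import Cfsg.Agent.S2121
import Cfsg.Agent.S2127
import Cfsg.Agent.S2129
import Cfsg.Agent.S1055
import Cfsg.Agent.S1059
import Cfsg.Agent.S1067
import Cfsg.Agent.S1069
import Cfsg.Agent.S1071
import Cfsg.Agent.S1073

/-!
helper404 (market task 4228, for S2223): `ALS` for `G₂(q)`, `³D₄(q)`, `²G₂(q)`, `q` odd.
-/

set_option autoImplicit false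

namespace Cfsg.Agent.H404.Hall

open Cfsg Cfsg.Agent.H125.Hall Cfsg.Agent.H762.FineTools

theorem le_of_PR {T : Type} [Group T] {r d m : ℕ} (hrT : r ∣ Nat.card T) (hLS : H203.LS.LS.{0, 0, 0} r d T)
    (h : PR m T) : d ≤ m := by
  obtain ⟨k, _, P, _, _, π, ρ, hπ, hc, hP, hρ, hk⟩ := h
  refine hLS P π hπ hc hP k (fun h0 => hk ?_) m ρ hρ
  obtain ⟨c, hc⟩ := hrT
  rw [hc, Nat.cast_mul, h0, zero_mul]

theorem als_of {T : Type} [Group T] {r d : ℕ} (hrT : r ∣ Nat.card T) (hLS : H203.LS.LS.{0, 0, 0} r d T)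
    (h6 : 6 ≤ d) (h : 2 * v2 T + 4 ≤ 3 * d) (h27 : d ≤ 27 → v2 T ≤ 16) : ALS T := by
  intro m hm
  have h1 := le_of_PR hrT hLS hm
  exact ⟨fun h => by omega, fun h => by omega, fun _ => by omega, fun h => h27 (by omega)⟩

/-- `2 ^ v ≤ |Aut T|` -/
theorem v2_le {T : Type} [Group T] [Finite T] {n : ℕ} (h : Nat.card (MulAut T) ≤ 2 ^ n) : v2 T ≤ n := by
  have h1 : 2 ^ v2 T ≤ Nat.card (MulAut T) := Nat.ordProj_le 2 Nat.card_pos.ne'
  exact (Nat.pow_le_pow_iff_right (by norm_num)).1 (h1.trans h)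

theorem v2_eq {T : Type} [Group T] {a b : ℕ} (h : Nat.card (MulAut T) = 2 ^ a * b) (hb : Odd b) : v2 T = a := by
  have hb0 : b ≠ 0 := by
    rintro rfl
    simp at hb
  rw [v2, h, Nat.factorization_mul (by positivity) hb0, Nat.Prime.factorization_pow Nat.prime_two]
  have h2 : b.factorization 2 = 0 := Nat.factorization_eq_zero_of_not_dvd (by
    rw [← even_iff_two_dvd, Nat.not_even_iff_odd]
    exact hb)
  simp [h2]

/-! ### `G₂(q)` -/

theorem g2_setup {F : Type} [Field F] [Fintype F] (h3 : 3 ≤ Fintype.card F) :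
    IsSimpleGroup ↥(Lie.chevG2.group F) ∧ ¬ IsMulCommutative ↥(Lie.chevG2.group F) :=
  S1055.result (F := F) (by
    classical
    by_contra hcon
    push Not at hcon
    have h1 : (Finset.univ : Finset F) ⊆ {0, 1} := by
      intro x _
      simp only [Finset.mem_insert, Finset.mem_singleton]
      by_cases hx : x = 0
      · exact Or.inl hx
      · exact Or.inr (hcon x hx)
    have h2 := Finset.card_le_card h1
    have h3 : ({0, 1} : Finset F).card ≤ 2 := Finset.card_le_two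
    rw [Finset.card_univ] at h2
    omega)

theorem als_g2 {F : Type} [Field F] [Fintype F] (hodd : Odd (Fintype.card F)) : ALS ↥(Cfsg.Lie.chevG2.group F) := by
  obtain ⟨r, hchar⟩ := CharP.exists F
  have hr : r.Prime := (CharP.char_is_prime_or_zero F r).resolve_right (CharP.char_ne_zero_of_finite F r)
  have hfact : Fact r.Prime := ⟨hr⟩
  obtain ⟨⟨f, hf⟩, -, hcard⟩ := FiniteField.card F r
  have hcard : Fintype.card F = r ^ f := hcard
  set q := Fintype.card F with hq
  have h2q : 2 ≤ q := by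
    rw [hq]
    exact Fintype.one_lt_card
  have h3 : 3 ≤ q := by
    rcases hodd with ⟨c, hc⟩
    omega
  obtain ⟨hs, hna⟩ := g2_setup (F := F) h3
  have hT : Nat.card ↥(Lie.chevG2.group F) = q ^ 6 * (q ^ 2 - 1) * (q ^ 6 - 1) := S1059.result rfl
  have hO := S2121.result (F := F) r f hcard (by rw [← hcard]; omega)
  have hout : Nat.card (Out ↥(Lie.chevG2.group F)) ≤ 2 * q := by
    rw [hO]
    have h1 : f < r ^ f := Nat.lt_pow_self hr.one_lt
    split_ifs <;> omega
  have hrT : r ∣ Nat.card ↥(Lie.chevG2.group F) := by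
    rw [hT]
    refine Dvd.dvd.mul_right (Dvd.dvd.mul_right (dvd_pow ?_ (by norm_num)) _) _
    rw [hcard]
    refine dvd_pow_self r ?_
    rintro rfl
    rw [pow_zero] at hcard
    omega
  have hLS := H203.LS.G2.ls.{0, 0, 0} (r := r) F (by rw [Nat.card_eq_fintype_card]; omega)
    (by rw [Nat.card_eq_fintype_card]; rcases hodd with ⟨c, hc⟩; omega)
  rw [Nat.card_eq_fintype_card, ← hq] at hLS
  by_cases h7 : 7 ≤ q
  · have h42 : 6 * q ≤ (q - 1) * q := Nat.mul_le_mul_right _ (by omega)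
    refine als_of hrT hLS (by omega) ?_ (fun h => by omega)
    have h1 : Nat.card ↥(Lie.chevG2.group F) ≤ q ^ 14 := by
      rw [hT]
      calc q ^ 6 * (q ^ 2 - 1) * (q ^ 6 - 1) ≤ q ^ 6 * q ^ 2 * q ^ 6 :=
            Nat.mul_le_mul (Nat.mul_le_mul_left _ (Nat.sub_le _ _)) (Nat.sub_le _ _)
        _ = q ^ 14 := by ring
    have hv : v2 ↥(Lie.chevG2.group F) ≤ 16 * (q - 4) := by
      refine v2_le ?_
      rw [card_aut hna]
      have h2 : q ≤ 2 ^ (q - 4) := by
        clear_value q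
        clear * - h7
        induction q, h7 using Nat.le_induction with
        | base => norm_num
        | succ n hn ih =>
          have e : n + 1 - 4 = n - 4 + 1 := by omega
          rw [e, pow_succ]
          omega
      calc _ ≤ q ^ 14 * (2 * q) := Nat.mul_le_mul h1 hout
        _ ≤ q ^ 14 * (q * q) := Nat.mul_le_mul_left _ (Nat.mul_le_mul_right _ (by omega))
        _ = q ^ 16 := by ring
        _ ≤ (2 ^ (q - 4)) ^ 16 := Nat.pow_le_pow_left h2 16
        _ = 2 ^ (16 * (q - 4)) := by rw [← pow_mul, mul_comm]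
    have h9 : 32 * (q - 4) + 4 ≤ 3 * ((q - 1) * q) := by
      clear_value q
      clear * - h7
      obtain ⟨c, rfl⟩ := Nat.exists_eq_add_of_le h7
      have e1 : 7 + c - 4 = 3 + c := by omega
      have e2 : 7 + c - 1 = 6 + c := by omega
      rw [e1, e2]
      nlinarith
    omega
  · have h35 : q = 3 ∨ q = 5 := by
      rcases hodd with ⟨c, hc⟩
      omega
    have hr' : r = q ∧ f = 1 := by
      have hf1 : f = 1 := by
        by_contra hne
        have h2f : 2 ≤ f := by omega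
        have h3' : 3 ≤ r := by
          rcases hr.eq_two_or_odd' with h2 | h2
          · exfalso
            rw [hcard, h2] at hodd
            exact (Nat.not_even_iff_odd.2 hodd) ((Nat.even_pow.2 ⟨even_two, by omega⟩))
          · have := hr.two_le
            rcases h2 with ⟨c, hc⟩
            omega
        have h4 : 3 ^ 2 ≤ r ^ f := (Nat.pow_le_pow_left h3' 2).trans (Nat.pow_le_pow_right (by omega) h2f)
        rw [← hcard] at h4
        omega
      refine ⟨?_, hf1⟩
      rw [hcard, hf1, pow_one]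
    obtain ⟨hrq, rfl⟩ := hr'
    rcases h35 with h35 | h35
    · have hv : v2 ↥(Lie.chevG2.group F) = 7 := by
        refine v2_eq (b := 66339) ?_ (by decide)
        rw [card_aut hna, hT, hO, hrq, h35]
        norm_num
      rw [h35] at hLS
      refine als_of hrT hLS (by norm_num) (by omega) (fun h => by omega)
    · have hv : v2 ↥(Lie.chevG2.group F) = 6 := by
        refine v2_eq (b := 91546875) ?_ (by decide)
        rw [card_aut hna, hT, hO, hrq, h35]
        norm_num
      rw [h35] at hLS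
      refine als_of hrT hLS (by norm_num) (by omega) (fun h => by omega)

/-! ### `³D₄(q)` -/

theorem als_3d4 {F : Type} [Field F] [Fintype F] {q : ℕ} (hq : Fintype.card F = q ^ 3) (hodd : Odd q) :
    ALS ↥(Cfsg.Lie.twistedD4 F q) := by
  have hpp : IsPrimePow q := by
    have h1 : IsPrimePow (Fintype.card F) := Fintype.isPrimePow_card_of_field
    rw [hq] at h1
    exact (isPrimePow_pow_iff (by norm_num)).1 h1
  obtain ⟨r, f, hr, hf, rfl⟩ := hpp
  have hr : r.Prime := hr.nat_prime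
  have hfact : Fact r.Prime := ⟨hr⟩
  have hpp : IsPrimePow (r ^ f) := ⟨r, f, hr.prime, hf, rfl⟩
  have hchar : CharP F r := H203.LS.charP_of_card (n := f * 3) hr (by rw [hq, pow_mul])
  obtain ⟨hs, hna⟩ := S1071.result hpp hq
  have hT := S1067.result hpp hq
  have hout : Nat.card (Out ↥(Lie.twistedD4 F (r ^ f))) ≤ 3 * r ^ f := by
    rw [S2129.result r f (by rw [hq, ← pow_mul, mul_comm]) hf]
    exact Nat.mul_le_mul_left _ (Nat.lt_pow_self hr.one_lt).le
  have hLS := H203.LS.TwD4.ls.{0, 0, 0} (r := r) hpp hq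
  have h2 : 2 ≤ r ^ f := hpp.two_le
  have hrq : r ∣ r ^ f := dvd_pow_self r hf.ne'
  generalize r ^ f = q at *
  have h3 : 3 ≤ q := by
    rcases hodd with ⟨c, hc⟩
    omega
  have h4 : 54 * q ≤ (q - 1) * q ^ 4 := by
    have e1 : 2 * (27 * q) ≤ (q - 1) * q ^ 4 := by
      refine Nat.mul_le_mul (by omega) ?_
      have e2 : q ^ 4 = q ^ 3 * q := by ring
      rw [e2]
      refine Nat.mul_le_mul_right _ ?_
      calc 27 = 3 ^ 3 := by norm_num
        _ ≤ q ^ 3 := Nat.pow_le_pow_left h3 3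
    omega
  have h8 : q ^ 8 + q ^ 4 + 1 ≤ q ^ 9 := by
    have e1 : q ^ 9 = q * q ^ 8 := by ring
    have e2 : 2 * q ^ 8 ≤ q * q ^ 8 := Nat.mul_le_mul_right _ h2
    have e3 : q ^ 4 + 1 ≤ q ^ 8 := by
      have : q ^ 4 < q ^ 8 := Nat.pow_lt_pow_right (by omega) (by norm_num)
      omega
    omega
  have h1 : Nat.card ↥(Lie.twistedD4 F q) ≤ q ^ 29 := by
    rw [hT]
    calc q ^ 12 * (q ^ 2 - 1) * (q ^ 6 - 1) * (q ^ 8 + q ^ 4 + 1) ≤ q ^ 12 * q ^ 2 * q ^ 6 * q ^ 9 :=
          Nat.mul_le_mul (Nat.mul_le_mul (Nat.mul_le_mul_left _ (Nat.sub_le _ _)) (Nat.sub_le _ _)) h8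
      _ = q ^ 29 := by ring
  have hv : v2 ↥(Lie.twistedD4 F q) ≤ 32 * q := by
    refine v2_le ?_
    rw [card_aut hna]
    calc _ ≤ q ^ 29 * (3 * q) := Nat.mul_le_mul h1 hout
      _ ≤ q ^ 29 * (q ^ 2 * q) := Nat.mul_le_mul_left _ (Nat.mul_le_mul_right _ (by nlinarith))
      _ = q ^ 32 := by ring
      _ ≤ (2 ^ q) ^ 32 := Nat.pow_le_pow_left Nat.lt_two_pow_self.le 32
      _ = 2 ^ (32 * q) := by rw [← pow_mul, mul_comm]
  refine als_of ?_ hLS (by omega) (by omega) (fun h => by omega)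
  rw [hT]
  exact Dvd.dvd.mul_right (Dvd.dvd.mul_right (Dvd.dvd.mul_right (hrq.trans (dvd_pow_self _ (by norm_num))) _) _) _

/-! ### `²G₂(q)` -/

theorem als_ree_aux {F : Type} [Field F] [Fintype F] {m : ℕ} (hm : 1 ≤ m) (hF : Fintype.card F = 3 ^ (2 * m + 1)) :
    ALS ↥(Lie.twistedG2 F (3 ^ m)) := by
  obtain ⟨hs, hna⟩ := S1073.result hm hF
  have hT := S1069.result hF
  have hO := S2127.result hm hF
  have hLS := H203.LS.LS.ree.{0, 0, 0} hm hF
  rw [Nat.card_eq_fintype_card, hF] at hLS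
  have hrT : 3 ∣ Nat.card ↥(Lie.twistedG2 F (3 ^ m)) := by
    rw [hT]
    exact Dvd.dvd.mul_right (Dvd.dvd.mul_right ((dvd_pow_self 3 (by omega)).trans (dvd_pow_self _ (by norm_num))) _) _
  by_cases h1 : m = 1
  · subst h1
    have hv : v2 ↥(Lie.twistedG2 F (3 ^ 1)) = 3 := by
      refine v2_eq (b := 3777541677) ?_ (by decide)
      rw [card_aut hna, hT, hO]
      norm_num
    refine als_of hrT hLS (by norm_num) (by rw [hv]; norm_num) (fun _ => by rw [hv]; norm_num)
  · have h243 : 243 ≤ 3 ^ (2 * m + 1) := by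
      calc 243 = 3 ^ 5 := by norm_num
        _ ≤ _ := Nat.pow_le_pow_right (by norm_num) (by omega)
    have hout : Nat.card (Out ↥(Lie.twistedG2 F (3 ^ m))) ≤ 3 ^ (2 * m + 1) := by
      rw [hO]
      exact (Nat.lt_pow_self (by norm_num)).le
    generalize 3 ^ (2 * m + 1) = q at *
    have h1 : Nat.card ↥(Lie.twistedG2 F (3 ^ m)) ≤ q ^ 7 := by
      rw [hT]
      obtain ⟨k, rfl⟩ : ∃ k, q = k + 1 := ⟨q - 1, by omega⟩
      rw [Nat.add_sub_cancel]
      calc (k + 1) ^ 3 * k * ((k + 1) ^ 3 + 1) = (k + 1) ^ 3 * (k * ((k + 1) ^ 3 + 1)) := by ring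
        _ ≤ (k + 1) ^ 3 * (k + 1) ^ 4 := Nat.mul_le_mul_left _ (by nlinarith [sq_nonneg k, pow_nonneg (Nat.zero_le k) 3])
        _ = (k + 1) ^ 7 := by ring
    have hv : v2 ↥(Lie.twistedG2 F (3 ^ m)) ≤ q := by
      refine v2_le ?_
      rw [card_aut hna]
      have h2 : q ^ 8 ≤ 2 ^ q := by
        clear * - h243
        induction q, h243 using Nat.le_induction with
        | base => norm_num
        | succ n hn ih =>
          rw [pow_succ 2]
          have h4 : (243 * (n + 1)) ^ 8 ≤ (244 * n) ^ 8 := Nat.pow_le_pow_left (by omega) 8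
          rw [mul_pow, mul_pow] at h4
          have h5 : (243 : ℕ) ^ 8 = 12157665459056928801 := by norm_num
          have h6 : (244 : ℕ) ^ 8 = 12563730464589807616 := by norm_num
          rw [h5, h6] at h4
          omega
      calc _ ≤ q ^ 7 * q := Nat.mul_le_mul h1 hout
        _ = q ^ 8 := by ring
        _ ≤ 2 ^ q := h2
    exact als_of hrT hLS (by omega) (by omega) (fun h => by omega)

theorem pr_congr {T T' : Type} [Group T] [Group T'] (e : T ≃* T') {m : ℕ} (h : PR m T) : PR m T' := by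
  obtain ⟨k, _, P, _, _, π, ρ, hπ, hc, hP, hρ, hk⟩ := h
  refine ⟨k, inferInstance, P, inferInstance, inferInstance, e.toMonoidHom.comp π, ρ, e.surjective.comp hπ, ?_, hP,
    hρ, by rwa [← Nat.card_congr e.toEquiv]⟩
  intro x hx
  apply hc
  rw [MonoidHom.mem_ker] at hx ⊢
  exact e.map_eq_one_iff.1 hx

theorem v2_congr {T T' : Type} [Group T] [Group T'] (e : T ≃* T') : v2 T = v2 T' := by
  unfold v2
  rw [Nat.card_congr (MulAut.congr e).toEquiv]

theorem als_congr {T T' : Type} [Group T] [Group T'] (e : T ≃* T') (h : ALS T) : ALS T' := by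
  intro m hm
  rw [← v2_congr e]
  exact h m (pr_congr e.symm hm)

theorem als_ree {T : Type} [Group T] [Finite T] [IsSimpleGroup T] (h : Cfsg.Lie.IsoRee T) : ALS T := by
  obtain ⟨F, _, _, m, hm, hF, ⟨e⟩⟩ := h
  exact als_congr e.symm (als_ree_aux hm hF)

end Cfsg.Agent.H404.Hall
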